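-- PKG-D for B-G Proposition 11.7 (requested by helper15): an invariant elementary abelian
-- Sylow `q`-subgroup of `N ⊔ B` under a coprime `p`-group of operators.
import Mathlib
import Cfsg.Prelude.Def_Transfer
import Cfsg.Agent.Lib.Helper97.HHSylow
import Cfsg.Agent.Lib.Helper32.Tight

set_option autoImplicit false
set_option linter.style.haveILetI false

namespace Cfsg.Agent.Lib.Helper80.BG

open Cfsg

/-- If `b` normalizes `N` and `n ∈ N`, then `(n * b) ^ k ≡ b ^ k` modulo `N`. -/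
theorem mul_pow_mem_of_normalizer {G : Type*} [Group G] (N : Subgroup G) {n b : G}
    (hn : n ∈ N) (hb : b ∈ Subgroup.normalizer (N : Set G)) (k : ℕ) :
    (n * b) ^ k * (b ^ k)⁻¹ ∈ N := by
  induction k with
  | zero => simp
  | succ k ih =>
    have hbk : b ^ k ∈ Subgroup.normalizer (N : Set G) := Subgroup.pow_mem _ hb k
    have h1 : b ^ k * n * (b ^ k)⁻¹ ∈ N := (Subgroup.mem_normalizer_iff.mp hbk n).mp hn
    have h2 : (n * b) ^ (k + 1) * (b ^ (k + 1))⁻¹
        = ((n * b) ^ k * (b ^ k)⁻¹) * (b ^ k * n * (b ^ k)⁻¹) := by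
      rw [pow_succ, pow_succ]
      group
    rw [h2]
    exact N.mul_mem ih h1

theorem exists_invariant_ea_sylow {G : Type*} [Group G] [Finite G] (N B A : Subgroup G)
    {p q : ℕ} [Fact p.Prime] [Fact q.Prime]
    (hBN : B ≤ Subgroup.normalizer (N : Set G)) (hB : IsElementaryAbelian q B)
    (hBc : Nat.card B = q ^ 2) (hqN : ¬ q ∣ Nat.card N) (hA : IsPGroup p A)
    (hAL : A ≤ Subgroup.normalizer ((N ⊔ B : Subgroup G) : Set G))
    (hpN : ¬ p ∣ Nat.card N) (hpq : p ≠ q) :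
    ∃ B' : Subgroup G, B' ≤ N ⊔ B ∧ IsElementaryAbelian q B' ∧ Nat.card B' = q ^ 2 ∧
      A ≤ Subgroup.normalizer (B' : Set G) ∧
      ∀ X : Subgroup G, X ≤ N ⊔ B → IsPGroup q X →
        N ⊔ B ≤ Subgroup.normalizer (X : Set G) → X ≤ B' := by
  have hp : p.Prime := Fact.out
  have hq : q.Prime := Fact.out
  have hcopNq : (Nat.card N).Coprime (q ^ 2) :=
    Nat.Coprime.pow_right 2 ((Nat.Prime.coprime_iff_not_dvd hq).mpr hqN).symm
  -- a subgroup of order `q ^ 2` meets `N` trivially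
  have hdisj : ∀ Q : Subgroup G, Nat.card Q = q ^ 2 → N ⊓ Q = ⊥ := by
    intro Q hQc
    rw [Subgroup.eq_bot_iff_forall]
    intro x hx
    have h1 : orderOf x ∣ Nat.card N := by
      have := orderOf_dvd_natCard (⟨x, hx.1⟩ : N)
      rwa [Subgroup.orderOf_mk] at this
    have h2 : orderOf x ∣ q ^ 2 := by
      rw [← hQc]
      have := orderOf_dvd_natCard (⟨x, hx.2⟩ : Q)
      rwa [Subgroup.orderOf_mk] at this
    have h3 : orderOf x = 1 := Nat.eq_one_of_dvd_coprimes hcopNq h1 h2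
    exact orderOf_eq_one_iff.mp h3
  have hNB : N ⊓ B = ⊥ := hdisj B hBc
  have hcardL : Nat.card (N ⊔ B : Subgroup G) = Nat.card N * q ^ 2 := by
    rw [Cfsg.Agent.Lib.Helper32.card_sup_of_le_normalizer hBN hNB, hBc]
  have hpL : ¬ p ∣ Nat.card (N ⊔ B : Subgroup G) := by
    rw [hcardL]
    intro h
    rcases (Nat.Prime.dvd_mul hp).mp h with h | h
    · exact hpN h
    · exact hpq ((Nat.prime_dvd_prime_iff_eq hp hq).mp (hp.dvd_of_dvd_pow h))
  obtain ⟨Q, hQL, hQq, hQinv, hQidx⟩ :=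
    Cfsg.Agent.Lib.Helper97.HH.exists_invariant_sylow (N ⊔ B) A hAL (r := p) (q := q) hA hpL
  have hN0 : Nat.card N ≠ 0 := Nat.card_pos.ne'
  have hQc : Nat.card Q = q ^ 2 := by
    have h1 := Cfsg.Agent.Lib.Helper32.card_mul_relIndex_of_le hQL
    rw [hcardL] at h1
    obtain ⟨k, hk⟩ := IsPGroup.iff_card.mp hQq
    rw [hk] at h1 ⊢
    have hm0 : Q.relIndex (N ⊔ B) ≠ 0 := by
      intro h0
      rw [h0, mul_zero] at h1
      exact (mul_ne_zero hN0 (pow_ne_zero 2 hq.ne_zero)) h1.symm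
    have e1 : (q ^ k * Q.relIndex (N ⊔ B)).factorization q = k := by
      rw [Nat.factorization_mul (pow_ne_zero _ hq.ne_zero) hm0]
      simp [hq.factorization_pow, Nat.factorization_eq_zero_of_not_dvd hQidx]
    have e2 : (Nat.card N * q ^ 2).factorization q = 2 := by
      rw [Nat.factorization_mul hN0 (pow_ne_zero _ hq.ne_zero)]
      simp [hq.factorization_pow, Nat.factorization_eq_zero_of_not_dvd hqN]
    rw [h1, e2] at e1
    rw [← e1]
  have hNQ : N ⊓ Q = ⊥ := hdisj Q hQc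
  have hLN : N ⊔ B ≤ Subgroup.normalizer (N : Set G) :=
    sup_le Subgroup.le_normalizer hBN
  refine ⟨Q, hQL, ⟨?_, ?_⟩, hQc, ?_, ?_⟩
  · exact IsPGroup.isMulCommutative_of_card_eq_prime_sq hQc
  · intro a ha
    obtain ⟨n, hn, b, hb, rfl⟩ :=
      Cfsg.Agent.Lib.Helper32.exists_mul_of_mem_sup_of_le_normalizer hBN (hQL ha)
    have h1 := mul_pow_mem_of_normalizer N hn (hBN hb) q
    rw [hB.2 b hb, inv_one, mul_one] at h1
    have h2 : (n * b) ^ q ∈ N ⊓ Q := ⟨h1, Q.pow_mem ha q⟩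
    rw [hNQ] at h2
    exact Subgroup.mem_bot.mp h2
  · intro y hy
    rw [Subgroup.mem_normalizer_iff]
    intro g
    constructor
    · intro hg
      exact hQinv y hy g hg
    · intro hg
      have := hQinv y⁻¹ (A.inv_mem hy) _ hg
      simpa [mul_assoc] using this
  · intro X hXL hXq hXn
    have hQX : Q ≤ Subgroup.normalizer (X : Set G) := hQL.trans hXn
    have hsup : IsPGroup q (Q ⊔ X : Subgroup G) := IsPGroup.to_sup_of_normal_right' hQq hXq hQX
    have hle : Q ⊔ X ≤ N ⊔ B := sup_le hQL hXL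
    have h1 := Subgroup.relIndex_mul_relIndex Q (Q ⊔ X) (N ⊔ B) le_sup_left hle
    have h2 : ¬ q ∣ Q.relIndex (Q ⊔ X) := fun h => hQidx (h1 ▸ Dvd.dvd.mul_right h _)
    have h3 : Q.relIndex (Q ⊔ X) ∣ Nat.card (Q ⊔ X : Subgroup G) := by
      have := Cfsg.Agent.Lib.Helper32.card_mul_relIndex_of_le (le_sup_left : Q ≤ Q ⊔ X)
      exact Dvd.intro_left _ this
    obtain ⟨k, hk⟩ := IsPGroup.iff_card.mp hsup
    rw [hk] at h3
    obtain ⟨j, -, hj⟩ := (Nat.dvd_prime_pow hq).mp h3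
    have hj0 : j = 0 := by
      by_contra hne
      exact h2 (hj ▸ dvd_pow_self q hne)
    rw [hj0, pow_zero] at hj
    have h4 : Q ⊔ X ≤ Q := Subgroup.relIndex_eq_one.mp hj
    exact le_sup_right.trans h4

end Cfsg.Agent.Lib.Helper80.BG
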