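-- TEAM PROJECT S1431 (B-G Theorem 14.2 (d)-(g)), package E (LemE): clause (e).
import Mathlib
import Cfsg.Agent.Lib.Helper24.BG.S1431Defs
import Cfsg.Agent.Lib.Helper69.PCount

set_option autoImplicit false
set_option linter.style.haveILetI false

namespace Cfsg.Agent.Lib.Helper80.BG

open Cfsg

universe u

theorem lemE : Cfsg.Agent.Lib.Helper24.BG31.LemE.{u} := by
  intro G _ _ hG h1430 M hM K hK hK1 g hgM hgK
  obtain ⟨-, -, h3⟩ := h1430 M hM K hK hK1
  rw [Subgroup.eq_bot_iff_forall]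
  intro x hx
  by_contra hx1
  -- an element `y` of prime order `r` in the intersection
  have hox : orderOf x ≠ 1 := fun h => hx1 (orderOf_eq_one_iff.mp h)
  have hox0 : 0 < orderOf x := orderOf_pos x
  obtain ⟨r, hr, hrd⟩ := Nat.exists_prime_and_dvd hox
  haveI : Fact r.Prime := ⟨hr⟩
  obtain ⟨y, hy⟩ : ∃ y, y = x ^ (orderOf x / r) := ⟨_, rfl⟩
  have hoy : orderOf y = r := by rw [hy]; exact orderOf_pow_orderOf_div hox0.ne' hrd
  have hyK : y ∈ K := by rw [hy]; exact K.pow_mem hx.1 _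
  have hyKg : y ∈ K.map (MulAut.conj g).toMonoidHom := by
    rw [hy]; exact Subgroup.pow_mem _ hx.2 _
  obtain ⟨k, hkK, hk⟩ := hyKg
  have hk' : g * k * g⁻¹ = y := by simpa using hk
  have hok : orderOf k = r := by
    rw [← hoy, ← hk]
    exact (orderOf_injective (MulAut.conj g).toMonoidHom (MulAut.conj g).injective k).symm
  -- the two subgroups of order `r`
  have hXK : Subgroup.zpowers y ≤ K := (Subgroup.zpowers_le).mpr hyK
  have hX'K : Subgroup.zpowers k ≤ K := (Subgroup.zpowers_le).mpr hkK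
  have hcX : Nat.card ↥(Subgroup.zpowers y) = r := by rw [Nat.card_zpowers, hoy]
  have hcX' : Nat.card ↥(Subgroup.zpowers k) = r := by rw [Nat.card_zpowers, hok]
  have hNX := (h3 (Subgroup.zpowers y) hXK (by rw [hcX]; exact hr)).1
  have hNX' := (h3 (Subgroup.zpowers k) hX'K (by rw [hcX']; exact hr)).1
  have hKNX : K ≤ Subgroup.normalizer ((Subgroup.zpowers y : Subgroup G) : Set G) := by
    have h1 : K ≤ M ⊓ Subgroup.normalizer ((Subgroup.zpowers y : Subgroup G) : Set G) := by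
      rw [hNX]; exact le_sup_left
    exact h1.trans inf_le_right
  have hpX : IsPGroup r ↥(Subgroup.zpowers y) := IsPGroup.of_card (n := 1) (by rw [hcX, pow_one])
  have hpX' : IsPGroup r ↥(Subgroup.zpowers k) := IsPGroup.of_card (n := 1) (by rw [hcX', pow_one])
  have hpT : IsPGroup r ↥(Subgroup.zpowers k ⊔ Subgroup.zpowers y) :=
    IsPGroup.to_sup_of_normal_right' hpX' hpX (hX'K.trans hKNX)
  -- `r ∈ κ(M)`, so Sylow `r`-subgroups of `M` are cyclic
  have hrK : r ∣ Nat.card K := by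
    have h1 : orderOf (⟨y, hyK⟩ : ↥K) ∣ Nat.card ↥K := orderOf_dvd_natCard _
    rwa [Subgroup.orderOf_mk, hoy] at h1
  have hκ : r ∈ Cfsg.kappa M := hK.2.1 r hr hrK
  obtain ⟨P, hP⟩ := IsPGroup.exists_le_sylow
    (hpT.comap_subtype (K := M))
  haveI hPc : IsCyclic ↥(P : Subgroup ↥M) := (hκ.2.2.2 P).1
  have hyM : y ∈ M := hK.1 hyK
  have hkM : k ∈ M := hK.1 hkK
  have hyP : (⟨y, hyM⟩ : ↥M) ∈ (P : Subgroup ↥M) := by
    apply hP
    rw [Subgroup.mem_comap]
    exact (le_sup_right : Subgroup.zpowers y ≤ _) (Subgroup.mem_zpowers y)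
  have hkP : (⟨k, hkM⟩ : ↥M) ∈ (P : Subgroup ↥M) := by
    apply hP
    rw [Subgroup.mem_comap]
    exact (le_sup_left : Subgroup.zpowers k ≤ _) (Subgroup.mem_zpowers k)
  have hoy' : orderOf (⟨⟨y, hyM⟩, hyP⟩ : ↥(P : Subgroup ↥M)) = r := by
    rw [Subgroup.orderOf_mk, Subgroup.orderOf_mk, hoy]
  have hok' : orderOf (⟨⟨k, hkM⟩, hkP⟩ : ↥(P : Subgroup ↥M)) = r := by
    rw [Subgroup.orderOf_mk, Subgroup.orderOf_mk, hok]
  have hzz : Subgroup.zpowers (⟨⟨y, hyM⟩, hyP⟩ : ↥(P : Subgroup ↥M))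
      = Subgroup.zpowers (⟨⟨k, hkM⟩, hkP⟩ : ↥(P : Subgroup ↥M)) := by
    apply Cfsg.Agent.Lib.Helper69.eq_of_card_eq_of_isCyclic
    rw [Nat.card_zpowers, Nat.card_zpowers, hoy', hok']
  have hyk : y ∈ Subgroup.zpowers k := by
    have h1 : (⟨⟨y, hyM⟩, hyP⟩ : ↥(P : Subgroup ↥M)) ∈
        Subgroup.zpowers (⟨⟨k, hkM⟩, hkP⟩ : ↥(P : Subgroup ↥M)) := by
      rw [← hzz]; exact Subgroup.mem_zpowers _
    obtain ⟨n, hn⟩ := Subgroup.mem_zpowers_iff.mp h1
    have h2 := congrArg (fun z : ↥(P : Subgroup ↥M) => ((z : ↥M) : G)) hn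
    simp only [Subgroup.coe_zpow] at h2
    exact Subgroup.mem_zpowers_iff.mpr ⟨n, h2⟩
  have hXX' : Subgroup.zpowers y = Subgroup.zpowers k := by
    apply Subgroup.eq_of_le_of_card_ge ((Subgroup.zpowers_le).mpr hyk)
    rw [hcX, hcX']
  -- hence `g` normalizes `⟨k⟩`
  have hgN : g ∈ Subgroup.normalizer ((Subgroup.zpowers k : Subgroup G) : Set G) := by
    rw [Subgroup.mem_normalizer_iff]
    intro h
    constructor
    · intro hh
      obtain ⟨m, rfl⟩ := Subgroup.mem_zpowers_iff.mp hh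
      have e : g * k ^ m * g⁻¹ = y ^ m := by rw [← hk', conj_zpow]
      rw [e, ← hXX']
      exact Subgroup.zpow_mem _ (Subgroup.mem_zpowers y) m
    · intro hh
      rw [← hXX'] at hh
      obtain ⟨m, hm⟩ := Subgroup.mem_zpowers_iff.mp hh
      have e : g * k ^ m * g⁻¹ = y ^ m := by rw [← hk', conj_zpow]
      have e2 : h = k ^ m := by
        have : g * h * g⁻¹ = g * k ^ m * g⁻¹ := by rw [e, hm]
        simpa using this
      rw [e2]
      exact Subgroup.zpow_mem _ (Subgroup.mem_zpowers k) m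
  have : g ∈ M ⊓ Subgroup.normalizer ((Subgroup.zpowers k : Subgroup G) : Set G) := ⟨hgM, hgN⟩
  rw [hNX'] at this
  exact hgK this

end Cfsg.Agent.Lib.Helper80.BG
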